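import Cfsg.Agent.Helper28.C1683.OrbData

set_option autoImplicit false

namespace Cfsg.Agent.Helper28.C1683

theorem orb1_0 : Cfsg.Agent.Helper28.ptChunk (Cfsg.Agent.Helper28.orbPt T 2058 subL 136 ov1 op1 otp1 otw1) 136 256 0 = true := by decide +kernel

end Cfsg.Agent.Helper28.C1683
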