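import Cfsg.Agent.Helper28.C1683.OrbData

set_option autoImplicit false

namespace Cfsg.Agent.Helper28.C1683

theorem orb3_0 : Cfsg.Agent.Helper28.ptChunk (Cfsg.Agent.Helper28.orbPt T 2058 subL 425 ov3 op3 otp3 otw3) 425 256 0 = true := by decide +kernel

theorem orb3_1 : Cfsg.Agent.Helper28.ptChunk (Cfsg.Agent.Helper28.orbPt T 2058 subL 425 ov3 op3 otp3 otw3) 425 256 1 = true := by decide +kernel

end Cfsg.Agent.Helper28.C1683
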