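import Cfsg.Agent.Helper28.TCO
import Cfsg.Agent.Helper28.C1683.Cert
import Cfsg.Agent.Helper28.C1683.Orb1_0
import Cfsg.Agent.Helper28.C1683.Orb2_0
import Cfsg.Agent.Helper28.C1683.Orb3_0
import Cfsg.Agent.Helper28.C1683.Orb4_0

set_option autoImplicit false

namespace Cfsg.Agent.Helper28.C1683

theorem orb1_all : ∀ t, t < 136 → Cfsg.Agent.Helper28.orbPt T 2058 subL 136 ov1 op1 otp1 otw1 t = true :=
  Cfsg.Agent.Helper28.pts_of_chunks _ 136 256 1 (by decide) (by decide)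
    (Cfsg.Agent.Helper28.allLt_succ _ 0 (Cfsg.Agent.Helper28.allLt_zero _) orb1_0)

theorem ov1_lt : ov1 0 < 2058 := by decide +kernel

theorem orb2_all : ∀ t, t < 136 → Cfsg.Agent.Helper28.orbPt T 2058 subL 136 ov2 op2 otp2 otw2 t = true :=
  Cfsg.Agent.Helper28.pts_of_chunks _ 136 256 1 (by decide) (by decide)
    (Cfsg.Agent.Helper28.allLt_succ _ 0 (Cfsg.Agent.Helper28.allLt_zero _) orb2_0)

theorem ov2_lt : ov2 0 < 2058 := by decide +kernel

theorem orb3_all : ∀ t, t < 425 → Cfsg.Agent.Helper28.orbPt T 2058 subL 425 ov3 op3 otp3 otw3 t = true :=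
  Cfsg.Agent.Helper28.pts_of_chunks _ 425 256 2 (by decide) (by decide)
    (Cfsg.Agent.Helper28.allLt_succ _ 1 (Cfsg.Agent.Helper28.allLt_succ _ 0 (Cfsg.Agent.Helper28.allLt_zero _) orb3_0) orb3_1)

theorem ov3_lt : ov3 0 < 2058 := by decide +kernel

theorem orb4_all : ∀ t, t < 1360 → Cfsg.Agent.Helper28.orbPt T 2058 subL 1360 ov4 op4 otp4 otw4 t = true :=
  Cfsg.Agent.Helper28.pts_of_chunks _ 1360 256 6 (by decide) (by decide)
    (Cfsg.Agent.Helper28.allLt_succ _ 5 (Cfsg.Agent.Helper28.allLt_succ _ 4 (Cfsg.Agent.Helper28.allLt_succ _ 3 (Cfsg.Agent.Helper28.allLt_succ _ 2 (Cfsg.Agent.Helper28.allLt_succ _ 1 (Cfsg.Agent.Helper28.allLt_succ _ 0 (Cfsg.Agent.Helper28.allLt_zero _) orb4_0) orb4_1) orb4_2) orb4_3) orb4_4) orb4_5)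

theorem ov4_lt : ov4 0 < 2058 := by decide +kernel

theorem orb12_ne : ov2 (op2 (ov1 0)) ≠ ov1 0 := by decide +kernel

end Cfsg.Agent.Helper28.C1683
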