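import Cfsg.Agent.Helper28.C1683.Data

set_option autoImplicit false

namespace Cfsg.Agent.Helper28.C1683

theorem rel_0 : Cfsg.Agent.Helper28.ptChunk (Cfsg.Agent.Helper28.relPt T relL) 2058 256 0 = true := by decide +kernel

theorem rel_1 : Cfsg.Agent.Helper28.ptChunk (Cfsg.Agent.Helper28.relPt T relL) 2058 256 1 = true := by decide +kernel

theorem rel_2 : Cfsg.Agent.Helper28.ptChunk (Cfsg.Agent.Helper28.relPt T relL) 2058 256 2 = true := by decide +kernel

theorem rel_3 : Cfsg.Agent.Helper28.ptChunk (Cfsg.Agent.Helper28.relPt T relL) 2058 256 3 = true := by decide +kernel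

theorem rel_4 : Cfsg.Agent.Helper28.ptChunk (Cfsg.Agent.Helper28.relPt T relL) 2058 256 4 = true := by decide +kernel

theorem rel_5 : Cfsg.Agent.Helper28.ptChunk (Cfsg.Agent.Helper28.relPt T relL) 2058 256 5 = true := by decide +kernel

theorem rel_6 : Cfsg.Agent.Helper28.ptChunk (Cfsg.Agent.Helper28.relPt T relL) 2058 256 6 = true := by decide +kernel

theorem rel_7 : Cfsg.Agent.Helper28.ptChunk (Cfsg.Agent.Helper28.relPt T relL) 2058 256 7 = true := by decide +kernel

end Cfsg.Agent.Helper28.C1683
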