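import Cfsg.Agent.Helper28.C1683.Data

set_option autoImplicit false

namespace Cfsg.Agent.Helper28.C1683

theorem rows_8 : Cfsg.Agent.Helper28.ptChunk (Cfsg.Agent.Helper28.rowChk D) 5229 512 8 = true := by decide +kernel

theorem rows_9 : Cfsg.Agent.Helper28.ptChunk (Cfsg.Agent.Helper28.rowChk D) 5229 512 9 = true := by decide +kernel

theorem rows_10 : Cfsg.Agent.Helper28.ptChunk (Cfsg.Agent.Helper28.rowChk D) 5229 512 10 = true := by decide +kernel

end Cfsg.Agent.Helper28.C1683
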